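import Cfsg.Agent.H18.BG1
import Cfsg.Agent.H3.PG
import Cfsg.Agent.S1465

/-! Puig's subgroups (Bender-Glauberman, Appendix B), in ambient form: `pseq S n`, `pL S`, `pLs S`. -/

set_option autoImplicit false

namespace H18
open Subgroup Cfsg
open scoped commutatorElement

universe u
variable {G : Type u} [Group G] {G' : Type u} [Group G']
variable {A B H K S T X Y : Subgroup G} {p n m k : ℕ}

def pstep (S X : Subgroup G) : Subgroup G := sSup {A | A ≤ S ∧ Abel A ∧ X ≤ N(A)}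
def pseq (S : Subgroup G) : ℕ → Subgroup G
  | 0 => ⊥
  | n + 1 => pstep S (pseq S n)
def pL (S : Subgroup G) : Subgroup G := ⨅ n : ℕ, pseq S (2 * n + 1)
def pLs (S : Subgroup G) : Subgroup G := ⨆ n : ℕ, pseq S (2 * n)

theorem pstep_le : pstep S X ≤ S := sSup_le fun _ h => h.1
theorem le_pstep (h1 : A ≤ S) (h2 : Abel A) (h3 : X ≤ N(A)) : A ≤ pstep S X := le_sSup ⟨h1, h2, h3⟩
theorem pstep_le_of (h : ∀ A ≤ S, Abel A → X ≤ N(A) → A ≤ H) : pstep S X ≤ H :=
  sSup_le fun A hA => h A hA.1 hA.2.1 hA.2.2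
theorem pstep_mono (h1 : S ≤ T) (h2 : Y ≤ X) : pstep S X ≤ pstep T Y :=
  pstep_le_of fun _ a b c => le_pstep (a.trans h1) b (h2.trans c)
theorem pstep_anti (h2 : Y ≤ X) : pstep S X ≤ pstep S Y := pstep_mono le_rfl h2
theorem pstep_le_sub (h1 : pstep S X ≤ T) (h2 : Y ≤ X) : pstep S X ≤ pstep T Y :=
  pstep_le_of fun _ a b c => le_pstep ((le_pstep a b c).trans h1) b (h2.trans c)
theorem pseq_succ : pseq S (n + 1) = pstep S (pseq S n) := rfl
theorem pseq_le : pseq S n ≤ S := by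
  cases n
  · exact bot_le
  · exact pstep_le
theorem pseq_one : pseq S 1 = S :=
  le_antisymm pseq_le fun x hx => le_pstep (S := S) (X := ⊥) (zpowers_le.2 hx) abel_zpowers bot_le (mem_zpowers x)
theorem pseq_even_succ : pseq S (2 * n) ≤ pseq S (2 * n + 2) := by
  induction n with
  | zero => exact bot_le
  | succ n ih => exact pstep_anti (pstep_anti ih)
theorem pseq_odd_succ : pseq S (2 * n + 3) ≤ pseq S (2 * n + 1) := pstep_anti pseq_even_succ
theorem pseq_even_mono : Monotone fun n => pseq S (2 * n) := monotone_nat_of_le_succ fun _ => pseq_even_succ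
theorem pseq_odd_anti : Antitone fun n => pseq S (2 * n + 1) := antitone_nat_of_succ_le fun _ => pseq_odd_succ
theorem pseq_even_odd' : pseq S (2 * n) ≤ pseq S (2 * n + 1) ∧ pseq S (2 * n + 2) ≤ pseq S (2 * n + 1) := by
  induction n with
  | zero => exact ⟨bot_le, pstep_anti bot_le⟩
  | succ n ih => exact ⟨pstep_anti ih.2, pstep_anti (pstep_anti ih.2)⟩
theorem pseq_even_odd : pseq S (2 * n) ≤ pseq S (2 * m + 1) :=
  (pseq_even_mono (le_max_left n m)).trans (pseq_even_odd'.1.trans (pseq_odd_anti (le_max_right n m)))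
theorem pLs_le_pL : pLs S ≤ pL S := iSup_le fun _ => le_iInf fun _ => pseq_even_odd
theorem pL_le : pL S ≤ S := (iInf_le _ 0).trans pseq_le
theorem pLs_le : pLs S ≤ S := pLs_le_pL.trans pL_le
theorem pseq_le_pLs : pseq S (2 * n) ≤ pLs S := le_iSup (fun n => pseq S (2 * n)) n
theorem pL_le_pseq : pL S ≤ pseq S (2 * n + 1) := iInf_le (fun n => pseq S (2 * n + 1)) n

theorem map_pstep (f : G →* G') (hf : S ⊓ f.ker = ⊥) (hX : X ≤ S) :
    (pstep S X).map f = pstep (S.map f) (X.map f) := by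
  have inj : ∀ a ∈ S, ∀ b ∈ S, f a = f b → a = b := fun a ha b hb e => by
    have : a⁻¹ * b ∈ S ⊓ f.ker := mem_inf.2 ⟨mul_mem (inv_mem ha) hb, by simp [MonoidHom.mem_ker, e]⟩
    rw [hf, mem_bot] at this
    exact inv_mul_eq_one.1 this
  refine le_antisymm (map_le_iff_le_comap.2 (pstep_le_of fun A a b c => map_le_iff_le_comap.1 (le_pstep (map_mono a) ?_ ?_)))
    (pstep_le_of fun B a b c => ?_)
  · rw [Abel, cent_iff]
    rintro _ ⟨x, hx, rfl⟩ _ ⟨y, hy, rfl⟩
    rw [← map_mul, comm_of_cent b hx hy, map_mul]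
  · rw [norm_iff]
    rintro _ ⟨x, hx, rfl⟩ _ ⟨y, hy, rfl⟩
    exact ⟨_, conj_mem c hx hy, by simp⟩
  · have h1 : S ⊓ B.comap f ≤ pstep S X := le_pstep inf_le_left (cent_iff.2 fun x hx y hy => ?_) (norm_iff.2 fun x hx y hy => ?_)
    · intro z hz
      obtain ⟨y, hy, rfl⟩ := a hz
      exact ⟨y, h1 ⟨hy, hz⟩, rfl⟩
    · refine inj _ (mul_mem hx.1 hy.1) _ (mul_mem hy.1 hx.1) ?_
      rw [map_mul, map_mul]
      exact comm_of_cent b hx.2 hy.2
    · refine mem_inf.2 ⟨mul_mem (mul_mem (hX hx) hy.1) (inv_mem (hX hx)), ?_⟩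
      have := conj_mem c (mem_map_of_mem f hx) hy.2
      simpa using this
theorem map_pseq (f : G →* G') (hf : S ⊓ f.ker = ⊥) (n : ℕ) : (pseq S n).map f = pseq (S.map f) n := by
  induction n with
  | zero => exact map_bot f
  | succ n ih => rw [pseq_succ, pseq_succ, map_pstep f hf pseq_le, ih]

theorem pstep_top : pstep ⊤ X = puigStep X := by
  unfold pstep puigStep
  simp only [le_top, true_and, abel_iff]
theorem pseq_top (n : ℕ) : pseq (⊤ : Subgroup G) n = puigSeq G n := by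
  induction n with
  | zero => rfl
  | succ n ih => rw [pseq_succ, ih, pstep_top]; rfl
theorem pL_top : pL (⊤ : Subgroup G) = puigSubgroup G := by simp only [pL, puigSubgroup, pseq_top]
theorem pLs_top : pLs (⊤ : Subgroup G) = puigLower G := by simp only [pLs, puigLower, pseq_top]

variable [Finite G]

theorem exists_pseq_stab (S : Subgroup G) :
    ∃ k, ∀ n, k ≤ n → pseq S (2 * n) = pLs S ∧ pseq S (2 * n + 1) = pL S := by
  obtain ⟨k, hk⟩ := WellFoundedGT.monotone_chain_condition (⟨_, pseq_even_mono⟩ : ℕ →o Subgroup G)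
  have h1 : ∀ n, pseq S (2 * n) ≤ pseq S (2 * k) := fun n =>
    (le_total n k).elim (fun h => pseq_even_mono h) fun h => (hk n h).ge
  refine ⟨k, fun n hn => ⟨le_antisymm pseq_le_pLs (iSup_le fun m => (h1 m).trans (pseq_even_mono hn)),
    le_antisymm (le_iInf fun m => pstep_anti ((h1 m).trans (pseq_even_mono hn))) pL_le_pseq⟩⟩
theorem pstep_pLs : pstep S (pLs S) = pL S := by
  obtain ⟨k, hk⟩ := exists_pseq_stab S
  rw [← (hk k le_rfl).1, ← (hk k le_rfl).2, pseq_succ]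
theorem pstep_pL : pstep S (pL S) = pLs S := by
  obtain ⟨k, hk⟩ := exists_pseq_stab S
  rw [← (hk (k + 1) (Nat.le_succ k)).1, ← (hk k le_rfl).2]; rfl
theorem map_pL [Finite G'] (f : G →* G') (hf : S ⊓ f.ker = ⊥) : (pL S).map f = pL (S.map f) := by
  obtain ⟨k, hk⟩ := exists_pseq_stab S
  obtain ⟨l, hl⟩ := exists_pseq_stab (S.map f)
  rw [← (hk _ (le_max_left k l)).2, ← (hl _ (le_max_right k l)).2, map_pseq f hf]
theorem map_pLs [Finite G'] (f : G →* G') (hf : S ⊓ f.ker = ⊥) : (pLs S).map f = pLs (S.map f) := by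
  obtain ⟨k, hk⟩ := exists_pseq_stab S
  obtain ⟨l, hl⟩ := exists_pseq_stab (S.map f)
  rw [← (hk _ (le_max_left k l)).1, ← (hl _ (le_max_right k l)).1, map_pseq f hf]
theorem pL_bridge : (puigSubgroup S).map S.subtype = pL S := by
  rw [← pL_top, map_pL _ (by simp [ker_subtype]), ← MonoidHom.range_eq_map, range_subtype]
theorem pLs_bridge : (puigLower S).map S.subtype = pLs S := by
  rw [← pLs_top, map_pLs _ (by simp [ker_subtype]), ← MonoidHom.range_eq_map, range_subtype]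
theorem conj_ker (g : G) : S ⊓ (MulAut.conj g).toMonoidHom.ker = ⊥ := by
  rw [(MonoidHom.ker_eq_bot_iff _).2 (MulAut.conj g).injective, inf_bot_eq]
theorem norm_pseq (h : A ≤ N(S)) : A ≤ N(pseq S n) :=
  norm_functor (F := fun S => pseq S n) (fun g _ => map_pseq _ (conj_ker g) n) h
theorem norm_pL (h : A ≤ N(S)) : A ≤ N(pL S) :=
  norm_functor (F := pL) (fun g _ => map_pL _ (conj_ker g)) h
theorem norm_pLs (h : A ≤ N(S)) : A ≤ N(pLs S) :=
  norm_functor (F := pLs) (fun g _ => map_pLs _ (conj_ker g)) h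

theorem le_pseq (h : A ⊴ S) (hA : Abel A) (hn : 0 < n) : A ≤ pseq S n := by
  obtain ⟨n, rfl⟩ := Nat.exists_eq_succ_of_ne_zero hn.ne'
  exact le_pstep h.le hA (pseq_le.trans h.norm)
theorem le_pLs (h : A ⊴ S) (hA : Abel A) : A ≤ pLs S := (le_pseq h hA (n := 2 * 1) two_pos).trans pseq_le_pLs
theorem cent_le_of_abel (hp : p.Prime) (hS : PiGrp {p} S) (h : ∀ A, A ⊴ S → Abel A → A ≤ X) : S ⊓ C(X) ≤ X := by
  obtain ⟨B, -, hB⟩ := H3.exists_SCN hp hS Nml.bot abel_bot
  have := h B hB.nml hB.abel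
  exact (hB.le_of_cent inf_le_left (inf_le_right.trans (C_anti this))).trans this
theorem cent_pseq_le (hp : p.Prime) (hS : PiGrp {p} S) (hn : 0 < n) : S ⊓ C(pseq S n) ≤ pseq S n :=
  cent_le_of_abel hp hS fun _ a b => le_pseq a b hn
theorem cent_pLs_le (hp : p.Prime) (hS : PiGrp {p} S) : S ⊓ C(pLs S) ≤ pLs S :=
  cent_le_of_abel hp hS fun _ a b => le_pLs a b
theorem cent_pL_le (hp : p.Prime) (hS : PiGrp {p} S) : S ⊓ C(pL S) ≤ pL S :=
  cent_le_of_abel hp hS fun _ a b => (le_pLs a b).trans pLs_le_pL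

/-- BG Lemma B.2 -/
theorem sub_pL_eq (h1 : H ≤ S) (h2 : pL S ≤ H) : pL H = pL S := by
  have a : ∀ k, pseq H (2 * k) ≤ pLs S ∧ pL S ≤ pseq H (2 * k + 1) := fun k => by
    have b : ∀ k, pseq H (2 * k) ≤ pLs S → pL S ≤ pseq H (2 * k + 1) := fun k h => by
      rw [← pstep_pLs] at h2 ⊢
      exact pstep_le_sub h2 h
    induction k with
    | zero => exact ⟨bot_le, b 0 bot_le⟩
    | succ k ih =>
      have : pseq H (2 * (k + 1)) ≤ pLs S := by
        rw [← pstep_pL]; exact pstep_mono h1 ih.2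
      exact ⟨this, b _ this⟩
  have b : ∀ k, pseq S (2 * k) ≤ pseq H (2 * k) := fun k => by
    induction k with
    | zero => exact bot_le
    | succ k ih =>
      exact pstep_le_sub ((pseq_le_pLs (n := k + 1)).trans (pLs_le_pL.trans h2)) (pstep_mono h1 ih)
  exact le_antisymm (le_iInf fun k => pL_le_pseq.trans (pstep_mono h1 (b k))) (le_iInf fun k => (a k).2)

section odd
variable [Group.IsSolvable G]

theorem pstep_le_pcore (hodd : Odd (Nat.card G)) (hp : p.Prime) (hp2 : p ≠ 2) (hO : O[{p}ᶜ]((⊤ : Subgroup G)) = ⊥)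
    (hS : PiGrp {p} S) (hX : X ⊴ ⊤) (hXp : PiGrp {p} X) (hc : O[{p}]((⊤ : Subgroup G)) ⊓ C(X) ≤ X) (hY : X ≤ Y) :
    pstep S Y ≤ O[{p}]((⊤ : Subgroup G)) := by
  haveI := Fact.mk hp
  haveI := hX.normal
  have := (Cfsg.Agent.S1465.result hodd p hp2 X hXp.isPGroup {A | A ≤ S ∧ Abel A ∧ Y ≤ N(A)}
    fun B hB => ⟨hB.2.1.comm, (hS.of_le hB.1).isPGroup, hY.trans hB.2.2⟩).2
  rw [pPrimeCore_eq hp, pCore_eq hp] at this
  exact this hO hc

/-- BG Lemma B.3 -/
theorem pcore_sylow_puig (hodd : Odd (Nat.card G)) (hp : p.Prime) (hp2 : p ≠ 2) (hO : O[{p}ᶜ]((⊤ : Subgroup G)) = ⊥)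
    (hS : Hall {p} S ⊤) : pLs S ≤ pLs O[{p}]((⊤ : Subgroup G)) ∧ pL O[{p}]((⊤ : Subgroup G)) ≤ pL S := by
  set T := O[{p}]((⊤ : Subgroup G))
  have hTS : T ≤ S := hS.pcore_le
  have hT : PiGrp {p} T := pcore_pi
  have a : ∀ k, pseq S (2 * k) ≤ pseq T (2 * k) := fun k => by
    induction k with
    | zero => exact bot_le
    | succ k ih =>
      have b : pseq T (2 * k + 1) ≤ pseq S (2 * k + 1) := pstep_mono hTS ih
      exact pstep_le_sub (pstep_le_pcore hodd hp hp2 hO hS.pi ⟨le_top, norm_pseq pcore_nml.norm⟩ (hT.of_le pseq_le)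
        (cent_pseq_le hp hT (Nat.succ_pos _)) b) b
  exact ⟨iSup_mono a, iInf_mono fun k => pstep_mono hTS (a k)⟩

/-- BG Theorem B.4(b) -/
theorem puig_center_normal (hodd : Odd (Nat.card G)) (hp : p.Prime) (hp2 : p ≠ 2)
    (hO : O[{p}ᶜ]((⊤ : Subgroup G)) = ⊥) (hS : Hall {p} S ⊤) : Z(pL S) ⊴ ⊤ := by
  haveI := Fact.mk hp
  obtain ⟨h1, h2⟩ := pcore_sylow_puig hodd hp hp2 hO hS
  set T := O[{p}]((⊤ : Subgroup G))
  have hT : PiGrp {p} T := pcore_pi
  have hTS : T ≤ S := hS.pcore_le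
  set Y := Z(pL T)
  have hZY : Z(pL S) ≤ Y := by
    refine le_inf ?_ (inf_le_right.trans (C_anti h2))
    exact (le_inf (inf_le_left.trans pL_le) (inf_le_right.trans (C_anti pLs_le_pL))).trans
      ((cent_pLs_le hp hS.pi).trans (h1.trans pLs_le_pL))
  have hY : Y ⊴ ⊤ := ⟨le_top, norm_Z (norm_pL pcore_nml.norm)⟩
  have hYS : Y ≤ S := inf_le_left.trans (pL_le.trans hTS)
  haveI := hY.normal
  have hYL : Y ≤ pLs S := le_pLs (hY.of_le hYS le_top) abel_Z
  set f := QuotientGroup.mk' C(Y)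
  set D := (pCore p (G ⧸ C(Y))).comap f
  have hLD : pL S ≤ D := by
    have := (Cfsg.Agent.S1465.result hodd p hp2 Y (hS.pi.of_le hYS).isPGroup {A | A ≤ S ∧ Abel A ∧ pLs S ≤ N(A)}
      fun B hB => ⟨hB.2.1.comm, (hS.pi.of_le hB.1).isPGroup, hYL.trans hB.2.2⟩).1
    rw [← pstep_pLs]
    exact map_le_iff_le_comap.1 this
  have hD : D ⊴ ⊤ := by
    haveI : (pCore p (G ⧸ C(Y))).Normal := by rw [pCore_eq hp]; exact pcore_nml.normal
    exact nml_top
  have hCD : C(Y) ≤ D := fun x hx => by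
    have : f x = 1 := (QuotientGroup.eq_one_iff x).2 hx
    rw [mem_comap, this]; exact one_mem _
  have hSD : Hall {p} (S ⊓ D) D := hS.inf_nml hD
  have e1 : pL (S ⊓ D) = pL S := sub_pL_eq inf_le_left (le_inf pL_le hLD)
  have e2 : S ⊓ D ⊔ C(Y) = D := by
    refine hSD.sup_of_idx hCD ?_
    have : C(Y).relIndex D = Nat.card (D.map f) := by
      rw [← relIndex_ker, QuotientGroup.ker_mk']
    rw [this]
    refine PiGrp.of_le (H := pCore p (G ⧸ C(Y))) ?_ (map_comap_le _ _)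
    rw [pCore_eq hp]; exact pcore_pi
  have e3 := frattini_arg hp hD hSD
  have hn : N(S ⊓ D) ≤ N(Z(pL S)) := by rw [← e1]; exact norm_Z (norm_pL le_rfl)
  refine ⟨le_top, e3.ge.trans (sup_le (e2.ge.trans (sup_le (le_N.trans hn) ((C_anti hZY).trans C_le_N))) (inf_le_right.trans hn))⟩

end odd

theorem map_Z' (f : G →* G') (hf : S ⊓ f.ker = ⊥) : (Z(S)).map f = Z(S.map f) := by
  refine le_antisymm ?_ ?_
  · rintro _ ⟨x, hx, rfl⟩
    refine ⟨mem_map_of_mem f hx.1, mem_C.2 ?_⟩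
    rintro _ ⟨y, hy, rfl⟩
    rw [← map_mul, mem_C.1 hx.2 y hy, map_mul]
  · rintro _ ⟨⟨x, hx, rfl⟩, hc⟩
    refine ⟨x, ⟨hx, mem_C.2 fun y hy => ?_⟩, rfl⟩
    have : (x * y)⁻¹ * (y * x) ∈ S ⊓ f.ker := mem_inf.2 ⟨mul_mem (inv_mem (mul_mem hx hy)) (mul_mem hy hx), by
      have := mem_C.1 hc _ (mem_map_of_mem f hy)
      simp [MonoidHom.mem_ker, this, mul_assoc]⟩
    rw [hf, mem_bot] at this
    exact (inv_mul_eq_one.1 this).symm

theorem puig_Z_bridge : ((center (puigSubgroup S)).map (puigSubgroup S).subtype).map S.subtype = Z(pL S) := by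
  have : (center (puigSubgroup S)).map (puigSubgroup S).subtype = Z(puigSubgroup S) := by
    ext x
    refine ⟨?_, fun h => ⟨⟨x, h.1⟩, mem_center_iff.2 fun y => Subtype.ext (mem_C.1 h.2 y y.2), rfl⟩⟩
    rintro ⟨y, hy, rfl⟩
    exact ⟨y.2, mem_C.2 fun z hz => congrArg Subtype.val (mem_center_iff.1 hy ⟨z, hz⟩)⟩
  rw [this, map_Z' _ (by simp [ker_subtype]), pL_bridge]

/-- BG Theorem B.4(a) -/
theorem puig_factorization [Group.IsSolvable G] (hodd : Odd (Nat.card G)) (hp : p.Prime) (hp2 : p ≠ 2)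
    (hS : Hall {p} S ⊤) : O[{p}ᶜ]((⊤ : Subgroup G)) ⊔ N(Z(pL S)) = ⊤ := by
  set K := O[{p}ᶜ]((⊤ : Subgroup G)) with hK
  haveI : K.Normal := pcore_nml.normal
  have hKp : PiGrp {p}ᶜ K := pcore_pi
  set f := QuotientGroup.mk' K
  have hf : Function.Surjective f := QuotientGroup.mk'_surjective K
  have hk : f.ker = K := QuotientGroup.ker_mk' K
  have hd : S ⊓ f.ker = ⊥ := by rw [hk]; exact hS.pi.inf_eq_bot hKp
  have ho : Odd (Nat.card (G ⧸ K)) := hodd.of_dvd_nat (card_quotient_dvd_card K)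
  have hO : O[{p}ᶜ]((⊤ : Subgroup (G ⧸ K))) = ⊥ := by
    set W := O[{p}ᶜ]((⊤ : Subgroup (G ⧸ K)))
    haveI : W.Normal := pcore_nml.normal
    have h1 : K ≤ W.comap f := fun x hx => by
      have : f x = 1 := (QuotientGroup.eq_one_iff x).2 hx
      rw [mem_comap, this]; exact one_mem _
    have h2 : W.comap f ≤ K := le_pcore nml_top (piGrp_of_relIndex h1 hKp (by
      have := relIndex_ker (W.comap f) f
      rw [hk, map_comap_eq_self_of_surjective hf] at this
      rw [this]; exact pcore_pi))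
    rw [← map_comap_eq_self_of_surjective hf W, Subgroup.map_eq_bot_iff, hk]; exact h2
  have hS' : Hall {p} (S.map f) ⊤ := by
    obtain ⟨T, rfl⟩ := hS.exists_sylow_top hp
    haveI := Fact.mk hp
    exact hall_sylow_top hp (T.mapSurjective hf)
  have h1 := puig_center_normal ho hp hp2 hO hS'
  have hZ : Z(pL S) ≤ S := inf_le_left.trans pL_le
  rw [← map_pL f hd, ← map_Z' f (eq_bot_iff.2 ((inf_le_inf_right _ pL_le).trans hd.le))] at h1
  haveI := h1.normal
  have h2 : (Z(pL S) ⊔ K) ⊴ ⊤ := by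
    have := comap_map_eq f Z(pL S)
    rw [hk] at this
    rw [← this]; exact nml_top
  have h3 := frattini_arg hp h2 (hall_of_sup (hS.pi.of_le hZ) hKp (Nml.nrm2' nml_top le_top))
  exact top_le_iff.1 (h3.ge.trans (sup_le (sup_le (le_N.trans le_sup_right) le_sup_left) (inf_le_right.trans le_sup_right)))

end H18
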