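import Cfsg.Agent.H18.BG1
import Cfsg.Agent.H26.Qw0

/-! Piece `P5` of S1829: the centralizer of `V₁⟨z₂⟩` is `ψ P`. -/

set_option autoImplicit false

namespace H118.Qw
open Subgroup Cfsg H18 H326.Qw
open scoped commutatorElement
universe u

theorem cen_burn {G : Type*} [Group G] [Finite G] {S Y W : Subgroup G} {p : ℕ} (hp : p.Prime) (hS : Hall {p} S Y)
    (hW : W ≤ S) (hC : Y ≤ C(W)) (hn : ⁅Y ⊓ N(S), S⁆ ≤ W) (h0 : O[{p}ᶜ](Y) = ⊥) : S = Y := by
  have nW : W ⊴ Y := ⟨hW.trans hS.le, cent_norm hC⟩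
  have nS : W ⊴ S := nW.of_le hW hS.le
  have pW : PiGrp {p} W := hS.pi.of_le hW
  have h1 := Burnside_normal_complement hp (hS.mim (f := coset W) nW.norm) (by
    rw [← quo_inf_N nS]
    exact (comm_le_iff_quo (inf_le_left.trans nW.norm) nS.norm).1 hn)
  have nK : qpre W O[{p}ᶜ](Y ⫽ W) ⊴ Y := qpre_pcore_nml nW
  have hK : Hall {p} W (qpre W O[{p}ᶜ](Y ⫽ W)) := ⟨le_qpre, pW, by rw [relIndex_le_qpre]; exact pcore_pi⟩
  have h2 := Burnside_normal_complement hp hK (inf_le_left.trans (nK.le.trans hC))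
  rw [le_bot_iff.1 (nK.pcore_le_pcore.trans h0.le)] at h2
  have e := hK.eq_self h2.compl_of_eq_bot.of_compl_compl
  have e2 : O[{p}ᶜ](Y ⫽ W) = ⊥ := by rw [← quo_qpre (U := O[{p}ᶜ](Y ⫽ W)), ← e, quo_self]
  rw [e2] at h1
  exact hS.eq_self (piGrp_of_quo nW.norm h1.compl_of_eq_bot.of_compl_compl pW)

abbrev W0 := Pr 2 1
def rho : TT := ⟨1, DihedralGroup.r 1, false⟩

theorem d1 : ∀ t ∈ W0, t = 1 ∨ t = z1 ∨ t = v1 ∨ t = z1 * v1 ∨ t = z2 ∨ t = z1 * z2 ∨ t = v1 * z2 ∨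
    t = z1 * v1 * z2 := by decide +kernel
theorem d2 : ∀ t ∈ P, ∀ w ∈ W0, w * t = t * w := by decide +kernel
theorem d3 : ∀ t ∈ J, ∀ w ∈ W0, t * w * t⁻¹ ∈ W0 := by decide +kernel
theorem d4 : ∀ t ∈ J, t * z1 = z1 * t := by decide +kernel
theorem d5 : ∀ t ∈ J, t * u1 = u1 * t → t * v1 = v1 * t → t * u2 = u2 * t → t * v2 = v2 * t → t ∈ Z := by
  decide +kernel
theorem d6 : ∀ a ∈ A, a ∉ W0 → a * v2⁻¹ ∈ W0 := by decide +kernel
theorem d7 : ∀ b ∈ P, b * b = z2 → b * rho⁻¹ ∈ W0 := by decide +kernel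
theorem d8 : ∀ t ∈ P, t ∈ W0 ∨ ∃ w ∈ W0, t = w * v2 ∨ t = w * rho ∨ t = w * v2 * rho := by decide +kernel
theorem d9 : W0 ≤ P ∧ A ≤ P ∧ P ≤ J := by
  simp only [SetLike.le_def]; decide +kernel
theorem cW : Nat.card W0 = 8 := by rw [Nat.card_eq_fintype_card]; decide +kernel
theorem cZ : Nat.card Z = 4 := by rw [Nat.card_eq_fintype_card]; decide +kernel
theorem cP : Nat.card P = 32 := by rw [Nat.card_eq_fintype_card]; decide +kernel
theorem cJ : Nat.card J = 64 := by rw [Nat.card_eq_fintype_card]; decide +kernel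

theorem p5 : P5.{u} := by
  intro G _ _ ψ x c f g hg hz
  have cm : ∀ X : Subgroup TT, Nat.card (X.map ψ) = Nat.card X := fun X => card_map_of_injective c.inj
  have pi : ∀ X : Subgroup TT, PiGrp {2} (X.map ψ) := fun X => by
    rw [PiGrp, cm]
    exact (piNat_pow_self Nat.prime_two 7).of_dvd ((card_subgroup_dvd_card X).trans card_TT.dvd)
  have SY : P.map ψ ≤ C(W0.map ψ) := by
    rintro _ ⟨t, ht, rfl⟩
    refine mem_C.2 ?_
    rintro _ ⟨w, hw, rfl⟩
    rw [← map_mul, ← map_mul, d2 t ht w hw]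
  have hJ : Hall {2} (J.map ψ) C1(ψ z1) := ⟨by
    rintro _ ⟨t, ht, rfl⟩
    exact mem_C1.2 (by rw [← map_mul, ← map_mul, d4 t ht]), pi _, (piNat_compl_iff Nat.prime_two).2 f.sJ⟩
  have hS : Hall {2} (P.map ψ) C(W0.map ψ) := by
    refine sylow_of_max Nat.prime_two SY (pi _) fun Q hQ h1 h2 => ?_
    obtain ⟨y, -, hy⟩ := sylow_le_cj Nat.prime_two hJ hQ
      (h2.trans (C_le_C1 (mem_map_of_mem ψ (show z1 ∈ W0 by decide))))
    by_contra k
    have l1 := card_lt (lt_of_le_not_ge h1 k)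
    have l2 := card_dvd hy
    have l3 := card_dvd h1
    rw [cm, cP] at l1 l3
    rw [cm, cJ, card_cj] at l2
    have l4 : Nat.card Q = 64 := by
      have := Nat.le_of_dvd (by norm_num) l2
      omega
    have e : cj y Q = J.map ψ := eq_of_card_eq hy (by rw [card_cj, l4, cm, cJ])
    have l5 : cj y (W0.map ψ) ≤ Z.map ψ := fun w hw => by
      obtain ⟨t, ht, rfl⟩ := hy (cj_mono ((map_mono d9.1).trans h1) hw)
      have : ∀ t' ∈ J, t * t' = t' * t := fun t' h' => c.inj (by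
        have m : ψ t' ∈ cj y Q := e ▸ mem_map_of_mem ψ h'
        have := mem_C.1 (h2 (mem_cj.1 m)) _ (mem_cj.1 hw)
        rw [map_mul, map_mul]
        calc _ = y * (y⁻¹ * ψ t * y * (y⁻¹ * ψ t' * y)) * y⁻¹ := by group
          _ = _ := by rw [this]; group)
      exact mem_map_of_mem ψ (d5 t ht (this _ (by decide)) (this _ (by decide)) (this _ (by decide))
        (this _ (by decide)))
    have := card_le l5
    rw [card_cj, cm, cm, cW, cZ] at this
    omega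
  have e := cen_burn Nat.prime_two hS (map_mono d9.1) le_rfl (commutator_le.2 ?_) ?_
  · have : g ∈ P.map ψ := by
      rw [e]
      refine mem_C.2 ?_
      rintro _ ⟨w, hw, rfl⟩
      have a1 : Commute (ψ z1) g := mem_centralizer_iff.1 hg _ (by simp)
      have a2 : Commute (ψ v1) g := mem_centralizer_iff.1 hg _ (by simp)
      have a3 := hz.symm
      change Commute (ψ w) g
      rcases d1 w hw with rfl | rfl | rfl | rfl | rfl | rfl | rfl | rfl <;> try simp only [map_mul, map_one]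
      exacts [Commute.one_left g, a1, a2, a1.mul_left a2, a3, a1.mul_left a3, a2.mul_left a3,
        (a1.mul_left a2).mul_left a3]
    obtain ⟨t, ht, rfl⟩ := this
    exact ⟨t, ht, rfl⟩
  · rintro n ⟨n1, n2⟩ _ ⟨t, ht, rfl⟩
    have fx : ∀ w ∈ W0, n * ψ w * n⁻¹ = ψ w := fun w hw => by
      rw [← mem_C.1 n1 _ (mem_map_of_mem ψ hw), mul_inv_cancel_right]
    have im : ∀ t ∈ P, ∃ t' ∈ P, n * ψ t * n⁻¹ = ψ t' := fun t ht => by
      obtain ⟨t', h', e⟩ := conj_mem_N n2 (mem_map_of_mem ψ ht)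
      exact ⟨t', h', e.symm⟩
    let p : TT → Prop := fun t => ∃ w ∈ W0, n * ψ t * n⁻¹ = ψ (w * t)
    have mul : ∀ t ∈ P, ∀ t', p t → p t' → p (t * t') := by
      rintro t ht t' ⟨w, hw, e⟩ ⟨w', hw', e'⟩
      refine ⟨w * w', mul_mem hw hw', ?_⟩
      rw [map_mul, ← conj_mul, e, e', ← map_mul, mul_assoc w t, ← mul_assoc t, ← d2 t ht w' hw']
      congr 1; group
    have pw : ∀ w ∈ W0, p w := fun w hw => ⟨1, one_mem _, by rw [fx w hw, one_mul]⟩
    have pv : p v2 := by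
      obtain ⟨a, ha, e⟩ := f.wA n (fun t ht => by
        obtain ⟨t', -, e⟩ := im t (d9.2.1 ht)
        exact ⟨t', trivial, e⟩) v2 (by decide)
      refine ⟨_, d6 a ha fun h => ?_, by rw [e, inv_mul_cancel_right]⟩
      rw [← fx a h] at e
      rw [← c.inj (mul_left_cancel (mul_right_cancel e))] at h
      exact absurd h (by decide)
    have pr : p rho := by
      obtain ⟨b, hb, e⟩ := im rho (by decide)
      refine ⟨_, d7 b hb (c.inj ?_), by rw [e, inv_mul_cancel_right]⟩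
      rw [map_mul, ← e, conj_mul, ← map_mul, show rho * rho = z2 by decide, fx z2 (by decide)]
    have : p t := by
      rcases d8 t ht with h | ⟨w, hw, rfl | rfl | rfl⟩
      · exact pw t h
      · exact mul w (d9.1 hw) _ (pw w hw) pv
      · exact mul w (d9.1 hw) _ (pw w hw) pr
      · exact mul _ (mul_mem (d9.1 hw) (by decide)) _ (mul w (d9.1 hw) _ (pw w hw) pv) pr
    obtain ⟨w, hw, e⟩ := this
    rw [commutatorElement_def, e, map_mul, mul_inv_cancel_right]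
    exact mem_map_of_mem ψ hw
  · refine c.K _ (Nat.odd_iff.2 (Nat.two_dvd_ne_zero.1 ((piNat_compl_iff Nat.prime_two).1 pcore_pi)))
      (fun y hy => (mem_C.1 (pcore_le hy) _ (mem_map_of_mem ψ (show z ∈ W0 by decide))).symm) fun t ht y hy => ?_
    refine conj_mem (norm_pcore (norm_C (H := J.map ψ) (norm_iff.2 ?_))) (mem_map_of_mem ψ ht) hy
    rintro _ ⟨t, ht, rfl⟩ _ ⟨w, hw, rfl⟩
    rw [← map_inv, ← map_mul, ← map_mul]
    exact mem_map_of_mem ψ (d3 t ht w hw)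

end H118.Qw
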